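import Mathlib
import Cfsg.Agent.Lib.Helper52.KleinSylow

/-!
Abelian Sylow 2-subgroups: automorphisms induced by the normalizer, and fusion of involutions
when there are exactly three of them.
-/

set_option autoImplicit false

namespace Cfsg.Agent.Lib.Helper52

open Subgroup

variable {G : Type*} [Group G] [Finite G]

/-- If `n` normalizes the abelian Sylow 2-subgroup `P` and centralizes every element of `P` of
order at most two, then `n` centralizes `P`. -/
theorem conj_eq_self_of_fix_involutions (P : Sylow 2 G)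
    (hab : ∀ a ∈ (P : Subgroup G), ∀ b ∈ (P : Subgroup G), a * b = b * a)
    (n : G) (hn : n ∈ normalizer ((P : Subgroup G) : Set G))
    (hfix : ∀ t ∈ (P : Subgroup G), t * t = 1 → n * t * n⁻¹ = t) :
    ∀ x ∈ (P : Subgroup G), n * x * n⁻¹ = x := by
  have : Fact (Nat.Prime 2) := ⟨Nat.prime_two⟩
  obtain ⟨a, m, hm, ham⟩ := Nat.exists_eq_two_pow_mul_odd (orderOf_pos n).ne'
  have hg : n ^ m ∈ (P : Subgroup G) := by
    apply mem_sylow_of_mem_normalizer_of_pow P (n ^ m) (pow_mem hn m) a
    rw [← pow_mul, mul_comm, ← ham, pow_orderOf_eq_one]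
  -- conjugation by n ^ m is trivial on P
  have hcm : ∀ x ∈ (P : Subgroup G), ((MulAut.conj n) ^ m) x = x := by
    intro x hx
    rw [← map_pow, MulAut.conj_apply, hab _ hg x hx, mul_inv_cancel_right]
  have hcP : ∀ x ∈ (P : Subgroup G), (MulAut.conj n) x ∈ (P : Subgroup G) := by
    intro x hx
    rw [MulAut.conj_apply]
    exact (mem_normalizer_iff.1 hn x).1 hx
  have key : ∀ j : ℕ, ∀ x ∈ (P : Subgroup G), x ^ (2 ^ j) = 1 → (MulAut.conj n) x = x := by
    intro j
    induction j with
    | zero =>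
      intro x _ hx1
      rw [pow_zero, pow_one] at hx1
      rw [hx1, map_one]
    | succ j ih =>
      intro x hx hxj
      have hx2 : (x * x) ^ (2 ^ j) = 1 := by
        rw [← sq, ← pow_mul, ← pow_succ']; exact hxj
      have h2 := ih (x * x) (mul_mem hx hx) hx2
      rw [map_mul] at h2
      set c := MulAut.conj n with hc
      set y := x⁻¹ * c x with hy
      have hcx : c x ∈ (P : Subgroup G) := hcP x hx
      have hyP : y ∈ (P : Subgroup G) := mul_mem (inv_mem hx) hcx
      have hy2 : y * y = 1 := by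
        have h3 : y * y = x⁻¹ * x⁻¹ * (c x * c x) := by
          rw [hy]
          calc x⁻¹ * c x * (x⁻¹ * c x) = x⁻¹ * (c x * x⁻¹) * c x := by group
            _ = x⁻¹ * (x⁻¹ * c x) * c x := by rw [hab _ hcx _ (inv_mem hx)]
            _ = x⁻¹ * x⁻¹ * (c x * c x) := by group
        rw [h3, h2]; group
      have hcy : c y = y := by
        rw [hc, MulAut.conj_apply]; exact hfix y hyP hy2
      have hcx' : c x = x * y := by rw [hy]; group
      have hpow : ∀ i : ℕ, (c ^ i) x = x * y ^ i := by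
        intro i
        induction i with
        | zero => simp
        | succ i ih2 =>
          rw [pow_succ', MulAut.mul_apply, ih2, map_mul, map_pow, hcy, hcx', mul_assoc,
            ← pow_succ']
      have h5 := hcm x hx
      rw [hpow m] at h5
      have hym : y ^ m = 1 := by
        have : x * y ^ m = x * 1 := by rw [h5, mul_one]
        exact mul_left_cancel this
      obtain ⟨i, rfl⟩ := hm
      have hy1 : y = 1 := by
        have h6 : y ^ (2 * i + 1) = y := by
          rw [pow_succ, pow_mul, sq, hy2, one_pow, one_mul]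
        rw [h6] at hym; exact hym
      rw [hcx', hy1, mul_one]
  intro x hx
  obtain ⟨j, hj⟩ := P.isPGroup' ⟨x, hx⟩
  have hj' : x ^ (2 ^ j) = 1 := by
    have := congrArg Subtype.val hj
    simpa using this
  have := key j x hx hj'
  rwa [MulAut.conj_apply] at this

/-- If the normalizer of the abelian Sylow 2-subgroup `P` centralizes all elements of order at
most two of `P`, it centralizes `P`. -/
theorem normalizer_le_centralizer_of_fix_involutions (P : Sylow 2 G)
    (hab : ∀ a ∈ (P : Subgroup G), ∀ b ∈ (P : Subgroup G), a * b = b * a)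
    (hfix : ∀ n ∈ normalizer ((P : Subgroup G) : Set G), ∀ t ∈ (P : Subgroup G), t * t = 1 →
      n * t * n⁻¹ = t) :
    normalizer ((P : Subgroup G) : Set G) ≤ centralizer ((P : Subgroup G) : Set G) := by
  intro n hn
  rw [mem_centralizer_iff]
  intro p hp
  have := conj_eq_self_of_fix_involutions P hab n hn (hfix n hn) p hp
  calc p * n = (n * p * n⁻¹) * n := by rw [this]
    _ = n * p := by group

section ThreeInv

variable (P : Sylow 2 G)
  (hab : ∀ a ∈ (P : Subgroup G), ∀ b ∈ (P : Subgroup G), a * b = b * a)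
  (x y : G) (hx : x ∈ (P : Subgroup G)) (hy : y ∈ (P : Subgroup G))
  (hx2 : x * x = 1) (hy2 : y * y = 1)
  (hall : ∀ t ∈ (P : Subgroup G), t * t = 1 → t = 1 ∨ t = x ∨ t = y ∨ t = x * y)
include hab hx hy hx2 hy2 hall

omit [Finite G] in
/-- Three distinct involutions of `P`: the third is the product of the other two. -/
theorem three_inv_eq_mul (u v w : G) (hu : u ∈ (P : Subgroup G)) (hv : v ∈ (P : Subgroup G))
    (hw : w ∈ (P : Subgroup G)) (hu2 : u * u = 1) (hv2 : v * v = 1) (hw2 : w * w = 1)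
    (hu1 : u ≠ 1) (hv1 : v ≠ 1) (hw1 : w ≠ 1) (huv : u ≠ v) (hwu : w ≠ u) (hwv : w ≠ v) :
    w = u * v := by
  have e0 : y * x = x * y := hab y hy x hx
  have e1 : x * (x * y) = y := by rw [← mul_assoc, hx2, one_mul]
  have e2 : y * (x * y) = x := by rw [← e0, ← mul_assoc, hy2, one_mul]
  have e3 : x * y * x = y := by rw [← e0, mul_assoc, hx2, mul_one]
  have e4 : x * y * y = x := by rw [mul_assoc, hy2, mul_one]
  rcases hall u hu hu2 with rfl | rfl | rfl | rfl <;>
  rcases hall v hv hv2 with rfl | rfl | rfl | rfl <;>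
  rcases hall w hw hw2 with rfl | rfl | rfl | rfl <;>
  first
    | exact absurd rfl hu1
    | exact absurd rfl hv1
    | exact absurd rfl hw1
    | exact absurd rfl huv
    | exact absurd rfl hwu
    | exact absurd rfl hwv
    | rfl
    | exact e0.symm
    | exact e1.symm
    | exact e2.symm
    | exact e3.symm
    | exact e4.symm

/-- If two distinct involutions `u`, `v` of `P` are conjugate, then `v` is conjugate to
`u * v`. -/
theorem three_fusion (u v : G) (hu : u ∈ (P : Subgroup G)) (hv : v ∈ (P : Subgroup G))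
    (hu2 : u * u = 1) (hv2 : v * v = 1)
    (hu1 : u ≠ 1) (hv1 : v ≠ 1) (huv : u ≠ v) (hc : IsConj u v) : IsConj v (u * v) := by
  have : Fact (Nat.Prime 2) := ⟨Nat.prime_two⟩
  have : IsMulCommutative (P : Subgroup G) :=
    ⟨⟨fun a b => Subtype.ext (hab a a.2 b b.2)⟩⟩
  obtain ⟨g, hg⟩ := isConj_iff.1 hc
  have hmem : (g⁻¹)⁻¹ * u * g⁻¹ ∈ (P : Subgroup G) := by rw [inv_inv, hg]; exact hv
  obtain ⟨n, hn, hn2⟩ := P.conj_eq_normalizer_conj_of_mem u g⁻¹ hu hmem
  rw [inv_inv, hg] at hn2
  set m := n⁻¹ with hm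
  have hmN : m ∈ normalizer ((P : Subgroup G) : Set G) := inv_mem hn
  have hmu : m * u * m⁻¹ = v := by rw [hm, inv_inv]; exact hn2.symm
  have hwP : m * v * m⁻¹ ∈ (P : Subgroup G) := (mem_normalizer_iff.1 hmN v).1 hv
  have hw2 : (m * v * m⁻¹) * (m * v * m⁻¹) = 1 := by
    have : (m * v * m⁻¹) * (m * v * m⁻¹) = m * (v * v) * m⁻¹ := by group
    rw [this, hv2]; group
  have hw1 : m * v * m⁻¹ ≠ 1 := by
    intro h
    apply hv1
    have : v = m⁻¹ * (m * v * m⁻¹) * m := by group
    rw [this, h]; group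
  have hwv : m * v * m⁻¹ ≠ v := by
    intro h
    apply huv
    have h5 : m * u * m⁻¹ = m * v * m⁻¹ := by rw [hmu, h]
    have h6 : u = m⁻¹ * (m * u * m⁻¹) * m := by group
    rw [h6, h5]; group
  have hwu : m * v * m⁻¹ ≠ u := by
    intro h
    exact huv (no_swap_of_mem_normalizer P hab m hmN u v hu hmu h)
  have := three_inv_eq_mul P hab x y hx hy hx2 hy2 hall u v (m * v * m⁻¹) hu hv hwP hu2 hv2 hw2
    hu1 hv1 hw1 huv hwu hwv
  exact isConj_iff.2 ⟨m, this⟩

/-- Either all involutions of `P` are conjugate in `G`, or no two distinct ones are. -/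
theorem three_dichotomy :
    (∀ a ∈ (P : Subgroup G), ∀ b ∈ (P : Subgroup G), a ≠ 1 → b ≠ 1 → a * a = 1 → b * b = 1 →
      IsConj a b) ∨
    (∀ a ∈ (P : Subgroup G), ∀ b ∈ (P : Subgroup G), a ≠ 1 → b ≠ 1 → a * a = 1 → b * b = 1 →
      IsConj a b → a = b) := by
  by_cases h : ∃ a ∈ (P : Subgroup G), ∃ b ∈ (P : Subgroup G), a ≠ 1 ∧ b ≠ 1 ∧ a * a = 1 ∧
      b * b = 1 ∧ a ≠ b ∧ IsConj a b
  · left
    obtain ⟨a, ha, b, hb, ha1, hb1, ha2, hb2, hne, hc⟩ := h
    have hc2 : IsConj b (a * b) :=
      three_fusion P hab x y hx hy hx2 hy2 hall a b ha hb ha2 hb2 ha1 hb1 hne hc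
    have hc3 : IsConj a (a * b) := hc.trans hc2
    have key : ∀ t ∈ (P : Subgroup G), t ≠ 1 → t * t = 1 → IsConj a t := by
      intro t ht ht1 ht2
      by_cases hta : t = a
      · rw [hta]
      by_cases htb : t = b
      · rw [htb]; exact hc
      have := three_inv_eq_mul P hab x y hx hy hx2 hy2 hall a b t ha hb ht ha2 hb2 ht2 ha1 hb1 ht1
        hne hta htb
      rw [this]; exact hc3
    intro s hs t ht hs1 ht1 hs2 ht2
    exact (key s hs hs1 hs2).symm.trans (key t ht ht1 ht2)
  · right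
    intro a ha b hb ha1 hb1 ha2 hb2 hc
    by_contra hne
    exact h ⟨a, ha, b, hb, ha1, hb1, ha2, hb2, hne, hc⟩

end ThreeInv

end Cfsg.Agent.Lib.Helper52
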